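import Cfsg.Agent.H553.GoodLems
import Cfsg.Agent.ThreePrime.Main
import Cfsg.Agent.ThreePrime.SzDataExists
import Cfsg.Agent.Lib.MinNormal
import Cfsg.Agent.S0542
import Cfsg.Agent.S0205
import Cfsg.Agent.SignalizersComponents.CoprimeBasic

/-!
# Solvability of groups of order prime to 3 in which the solvable overgroups of a Sylow 2-subgroup are 2-nilpotent
(helper14)
-/

set_option autoImplicit false

namespace Cfsg.Agent.H14.NonSolv

open Subgroup Cfsg
open Cfsg.Agent.H553.ExtRed

universe u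

/-- odd lifts -/
theorem OddClosed.of_surjective {X Y : Type*} [Group X] [Finite X] [Group Y] (f : X →* Y)
    (hf : Function.Surjective f) (h : OddClosed X) : OddClosed Y := by
  have lift : ∀ y : Y, Odd (orderOf y) → ∃ x : X, f x = y ∧ Odd (orderOf x) := by
    intro y hy
    obtain ⟨x, rfl⟩ := hf y
    obtain ⟨a, b, hb, hab⟩ := Nat.exists_eq_two_pow_mul_odd (orderOf_pos x).ne'
    have hcop : Nat.Coprime (2 ^ a) (orderOf (f x)) := (Nat.coprime_two_left.2 hy).pow_left a
    obtain ⟨j, hj1, hj2⟩ := Nat.chineseRemainder hcop 0 1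
    refine ⟨x ^ j, ?_, ?_⟩
    · rw [map_pow]
      conv_rhs => rw [← pow_one (f x)]
      exact pow_eq_pow_iff_modEq.2 hj2
    · have h1 : orderOf (x ^ j) ∣ b := by
        apply orderOf_dvd_of_pow_eq_one
        rw [← pow_mul]
        obtain ⟨c, hc⟩ := (Nat.modEq_zero_iff_dvd).1 hj1
        rw [hc, show 2 ^ a * c * b = (2 ^ a * b) * c by ring, ← hab, pow_mul, pow_orderOf_eq_one, one_pow]
      exact Odd.of_dvd_nat hb h1
  intro y z hy hz
  obtain ⟨x, rfl, hx⟩ := lift y hy
  obtain ⟨w, rfl, hw⟩ := lift z hz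
  rw [← map_mul]
  exact Odd.of_dvd_nat (h x w hx hw) (orderOf_map_dvd f _)

/-- in a group with a normal 2-complement the elements of odd order centralise the normal 2-subgroups -/
theorem OddClosed.commute {H : Type*} [Group H] {X : Subgroup H} (h : OddClosed X) {U : Subgroup H}
    (hU : IsPGroup 2 U) (hUX : U ≤ X) {b : H} (hb : b ∈ X) (hbU : ∀ u ∈ U, b * u * b⁻¹ ∈ U) (hbo : Odd (orderOf b))
    {u : H} (hu : u ∈ U) : b * u * b⁻¹ = u := by
  have h1 : Odd (orderOf ((⟨b, hb⟩ : X) * (⟨u * b⁻¹ * u⁻¹, X.mul_mem (X.mul_mem (hUX hu) (X.inv_mem hb)) (X.inv_mem (hUX hu))⟩ : X))) := by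
    apply h
    · rw [← orderOf_coe]; exact hbo
    · rw [← orderOf_coe]
      have h2 : orderOf (u * b⁻¹ * u⁻¹) = orderOf b⁻¹ :=
        orderOf_injective (MulAut.conj u).toMonoidHom (MulAut.conj u).injective b⁻¹
      show Odd (orderOf (u * b⁻¹ * u⁻¹))
      rw [h2, orderOf_inv]
      exact hbo
  rw [← orderOf_coe] at h1
  have h3 : b * (u * b⁻¹ * u⁻¹) ∈ U := by
    have : b * (u * b⁻¹ * u⁻¹) = b * u * b⁻¹ * u⁻¹ := by group
    rw [this]
    exact U.mul_mem (hbU u hu) (U.inv_mem hu)
  obtain ⟨k, hk⟩ := hU ⟨_, h3⟩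
  have h4 : (b * (u * b⁻¹ * u⁻¹)) ^ 2 ^ k = 1 := congrArg Subtype.val hk
  have h5 : orderOf (b * (u * b⁻¹ * u⁻¹)) ∣ 2 ^ k := orderOf_dvd_of_pow_eq_one h4
  have h6 : orderOf (b * (u * b⁻¹ * u⁻¹)) = 1 :=
    Nat.eq_one_of_dvd_coprimes ((Nat.coprime_two_right.2 h1).pow_right k) dvd_rfl h5
  have h7 := orderOf_eq_one_iff.1 h6
  have h8 : b * u * b⁻¹ * u⁻¹ = 1 := by rw [← h7]; group
  exact mul_inv_eq_one.1 h8

theorem mem_sup_comm {H : Type*} [Group H] {S C : Subgroup H} (h : ∀ s ∈ S, ∀ c ∈ C, s * c = c * s) {x : H}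
    (hx : x ∈ S ⊔ C) : ∃ s ∈ S, ∃ c ∈ C, x = s * c := by
  let K : Subgroup H :=
    { carrier := {x | ∃ s ∈ S, ∃ c ∈ C, x = s * c}
      mul_mem' := by
        rintro _ _ ⟨s, hs, c, hc, rfl⟩ ⟨s', hs', c', hc', rfl⟩
        refine ⟨s * s', mul_mem hs hs', c * c', mul_mem hc hc', ?_⟩
        calc s * c * (s' * c') = s * (c * s') * c' := by group
          _ = s * (s' * c) * c' := by rw [h s' hs' c hc]
          _ = s * s' * (c * c') := by group
      one_mem' := ⟨1, one_mem _, 1, one_mem _, (mul_one 1).symm⟩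
      inv_mem' := by
        rintro _ ⟨s, hs, c, hc, rfl⟩
        refine ⟨s⁻¹, inv_mem hs, c⁻¹, inv_mem hc, ?_⟩
        rw [mul_inv_rev, h _ (inv_mem hs) _ (inv_mem hc)] }
  have h1 : S ⊔ C ≤ K := sup_le (fun s hs => ⟨s, hs, 1, one_mem _, (mul_one s).symm⟩)
    (fun c hc => ⟨1, one_mem _, c, hc, (one_mul c).symm⟩)
  exact h1 hx

/-- the local step -/
theorem exists_bad {H : Type u} [Group H] [Finite H] (h3 : ¬ 3 ∣ Nat.card H) (T : Sylow 2 H)
    (hX : ∀ X : Subgroup H, (T : Subgroup H) ≤ X → Group.IsSolvable X → OddClosed X) (N : Subgroup H) [hN : N.Normal]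
    (hNb : N ≠ ⊥) (hmin : ∀ M : Subgroup H, M.Normal → M ≤ N → M = ⊥ ∨ M = N) (hns : ¬ Group.IsSolvable N) : False := by
  have hf2 : Fact (Nat.Prime 2) := ⟨Nat.prime_two⟩
  obtain ⟨m, S, hm, hSN, hsim, hnrm, hconj, hcomm, -, hind, hsup⟩ :=
    Lib.MinNormal.exists_internal_decomposition N hNb hmin
  set i0 : Fin m := ⟨0, hm⟩ with hi0
  set S0 := S i0 with hS0
  set C := ⨆ (j) (_ : j ≠ i0), S j with hC
  have hSC : ∀ s ∈ S0, ∀ c ∈ C, s * c = c * s := by
    have h1 : C ≤ centralizer (S0 : Set H) := by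
      refine iSup_le fun j => iSup_le fun hj => ?_
      intro c hc
      rw [mem_centralizer_iff]
      intro s hs
      exact hcomm i0 j (Ne.symm hj) s hs c hc
    intro s hs c hc
    exact mem_centralizer_iff.1 (h1 hc) s hs
  have hSCN : N ≤ S0 ⊔ C := by
    rw [← hsup]
    refine iSup_le fun j => ?_
    by_cases hj : j = i0
    · rw [hj]; exact le_sup_left
    · exact le_trans (le_iSup₂ (f := fun (j : Fin m) (_ : j ≠ i0) => S j) j hj) le_sup_right
  have hdisj : ∀ x, x ∈ S0 → x ∈ C → x = 1 := by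
    intro x hx hx'
    exact (Subgroup.disjoint_def.1 (hind i0)) hx hx'
  have hnc : ∃ a b : S0, a * b ≠ b * a := by
    by_contra hcon
    push Not at hcon
    have hab : ∀ i, ∀ x ∈ S i, ∀ y ∈ S i, x * y = y * x := by
      intro i x hx y hy
      obtain ⟨g, hg⟩ := hconj i0 i
      rw [hg] at hx hy
      obtain ⟨x', hx', rfl⟩ := hx
      obtain ⟨y', hy', rfl⟩ := hy
      have h1 := congrArg Subtype.val (hcon ⟨x', hx'⟩ ⟨y', hy'⟩)
      have h2 : x' * y' = y' * x' := h1
      rw [← map_mul, h2, map_mul]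
    have h1 : N ≤ centralizer (N : Set H) := by
      conv_lhs => rw [← hsup]
      refine iSup_le fun i => ?_
      rw [← le_centralizer_iff]
      conv_lhs => rw [← hsup]
      refine iSup_le fun j => ?_
      intro y hy
      rw [mem_centralizer_iff]
      intro x hx
      by_cases hij : i = j
      · subst hij
        exact hab i x hx y hy
      · exact hcomm i j hij x hx y hy
    apply hns
    let _ : CommGroup N := { (inferInstance : Group N) with
      mul_comm := fun a b => Subtype.ext (mem_centralizer_iff.1 (h1 b.2) a a.2) }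
    infer_instance
  have hsub : S0.IsSubnormal := by
    refine IsSubnormal.step S0 N (hSN i0) hN.isSubnormal ?_
    rw [normal_subgroupOf_iff_le_normalizer (hSN i0)]
    exact hnrm i0
  have hs0 := hsim i0
  have h30 : ¬ 3 ∣ Nat.card S0 := fun h => h3 (h.trans (card_subgroup_dvd_card _))
  have hsz := ThreePrime.Main.isoSuzuki hnc h30
  obtain ⟨P, hP⟩ := S0542.result 2 S0 hsub T
  obtain ⟨D, hD⟩ := ThreePrime.SzRel.exists_szData hsz P
  -- an element of `D` moving an involution
  obtain ⟨z, z', hz, hz', hzz, d, hd, hdz⟩ : ∃ z z' : S0, z ∈ (P : Subgroup S0) ∧ z' ∈ (P : Subgroup S0) ∧ z ≠ z' ∧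
      ∃ d ∈ D, d * z * d⁻¹ = z' := by
    have h8 := hD.card
    set Z := (P : Subgroup S0) ⊓ centralizer ((P : Subgroup S0) : Set S0) with hZ
    have hsq : ∀ x ∈ Z, x * x = 1 := fun x hx => (hD.sq_iff x hx.1).2 fun y hy =>
      (mem_centralizer_iff.1 hx.2 y hy).symm
    obtain ⟨a, ha⟩ : ∃ a : Z, a ≠ 1 := by
      have : Nontrivial Z := Finite.one_lt_card_iff_nontrivial.1 (by omega)
      exact exists_ne 1
    obtain ⟨b, hb⟩ : ∃ b : Z, b ∉ ({1, a} : Set Z) := by
      by_contra hcon
      push Not at hcon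
      have h1 : (Set.univ : Set Z) ⊆ {1, a} := fun x _ => hcon x
      have h2 := Set.ncard_le_ncard h1 (Set.toFinite _)
      rw [Set.ncard_univ] at h2
      have h3 : ({1, a} : Set Z).ncard ≤ 2 := (Set.ncard_insert_le _ _).trans (by rw [Set.ncard_singleton])
      omega
    simp only [Set.mem_insert_iff, Set.mem_singleton_iff, not_or] at hb
    obtain ⟨d, hd, hdz⟩ := hD.trans a a.2.1 b b.2.1 (fun h => ha (Subtype.ext h)) (fun h => hb.1 (Subtype.ext h))
      (hsq a a.2) (hsq b b.2)
    exact ⟨a, b, a.2.1, b.2.1, fun h => hb.2 (Subtype.ext h.symm), d, hd, hdz⟩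
  have hdo : Odd (orderOf (d : H)) := by
    rw [orderOf_coe]
    have h1 := orderOf_dvd_natCard (⟨d, hd⟩ : D)
    rw [← orderOf_coe] at h1
    exact Odd.of_dvd_nat hD.odd h1
  have hdn := hD.D_le hd
  have hPT : ∀ x : S0, x ∈ (P : Subgroup S0) ↔ (x : H) ∈ (T : Subgroup H) := fun x => by rw [hP, mem_subgroupOf]
  set U : Subgroup H := (T : Subgroup H) ⊓ N with hU
  have hUp : IsPGroup 2 U := T.2.to_le inf_le_left
  have hPU : ∀ x : S0, x ∈ (P : Subgroup S0) → (x : H) ∈ U := fun x hx => ⟨(hPT x).1 hx, hSN i0 x.2⟩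
  -- the projection of `U` to `S0`
  have hproj : ∀ s ∈ S0, ∀ c ∈ C, s * c ∈ U → ∀ hs : s ∈ S0, (⟨s, hs⟩ : S0) ∈ (P : Subgroup S0) := by
    let P1 : Subgroup S0 :=
      { carrier := {s | ∃ c ∈ C, (s : H) * c ∈ U}
        mul_mem' := by
          rintro s s' ⟨c, hc, h1⟩ ⟨c', hc', h2⟩
          refine ⟨c * c', mul_mem hc hc', ?_⟩
          have h3 := mul_mem h1 h2
          have h4 : (s : H) * c * ((s' : H) * c') = ((s * s' : S0) : H) * (c * c') := by
            rw [coe_mul]
            calc (s : H) * c * ((s' : H) * c') = s * (c * s') * c' := by group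
              _ = s * (s' * c) * c' := by rw [hSC s' s'.2 c hc]
              _ = s * s' * (c * c') := by group
          rwa [h4] at h3
        one_mem' := ⟨1, one_mem _, by rw [coe_one, mul_one]; exact one_mem _⟩
        inv_mem' := by
          rintro s ⟨c, hc, h1⟩
          refine ⟨c⁻¹, inv_mem hc, ?_⟩
          have h2 := inv_mem h1
          rw [mul_inv_rev, ← hSC _ (inv_mem s.2) _ (inv_mem hc)] at h2
          exact h2 }
    have hP1 : IsPGroup 2 P1 := by
      rintro ⟨s, c, hc, h1⟩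
      obtain ⟨k, hk⟩ := hUp ⟨_, h1⟩
      refine ⟨k, Subtype.ext (Subtype.ext ?_)⟩
      have h2 : ((s : H) * c) ^ 2 ^ k = 1 := congrArg Subtype.val hk
      have h3 : Commute (s : H) c := hSC s s.2 c hc
      rw [h3.mul_pow] at h2
      have h4 : (s : H) ^ 2 ^ k = (c ^ 2 ^ k)⁻¹ := mul_eq_one_iff_eq_inv.1 h2
      exact hdisj ((s : H) ^ 2 ^ k) (pow_mem s.2 _) (by rw [h4]; exact inv_mem (pow_mem hc _))
    have hle : (P : Subgroup S0) ≤ P1 := fun x hx => ⟨1, one_mem _, by rw [mul_one]; exact hPU x hx⟩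
    have heq : P1 = P := P.3 hP1 hle
    intro s _ c hc h1 hs
    rw [← heq]
    exact ⟨c, hc, h1⟩
  have hdU : ∀ u ∈ U, (d : H) * u * (d : H)⁻¹ ∈ U := by
    intro u hu
    obtain ⟨s, hs, c, hc, rfl⟩ := mem_sup_comm hSC (hSCN hu.2)
    have h1 := hproj s hs c hc hu hs
    have h2 : d * ⟨s, hs⟩ * d⁻¹ * (⟨s, hs⟩ : S0)⁻¹ ∈ (P : Subgroup S0) :=
      mul_mem ((mem_normalizer_iff.1 hdn _).1 h1) (inv_mem h1)
    have h3 : (d : H) * (s * c) * (d : H)⁻¹ = ((d * ⟨s, hs⟩ * d⁻¹ * (⟨s, hs⟩ : S0)⁻¹ : S0) : H) * (s * c) := by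
      simp only [coe_mul, coe_inv]
      have h4 : c * (d : H)⁻¹ = (d : H)⁻¹ * c := (hSC _ (inv_mem d.2) c hc).symm
      calc (d : H) * (s * c) * (d : H)⁻¹ = d * s * (c * (d : H)⁻¹) := by group
        _ = d * s * ((d : H)⁻¹ * c) := by rw [h4]
        _ = (d : H) * s * (d : H)⁻¹ * s⁻¹ * (s * c) := by group
    rw [h3]
    exact mul_mem (hPU _ h2) hu
  -- the solvable overgroup
  have hTU : (T : Subgroup H) ≤ normalizer (U : Set H) := by
    intro t ht
    apply mem_normalizer_fintype
    intro u hu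
    exact ⟨(T : Subgroup H).mul_mem ((T : Subgroup H).mul_mem ht hu.1) ((T : Subgroup H).inv_mem ht),
      hN.conj_mem u hu.2 t⟩
  set B : Subgroup H := normalizer (U : Set H) ⊓ N with hB
  have hTB : (T : Subgroup H) ≤ normalizer (B : Set H) := by
    intro t ht
    apply mem_normalizer_fintype
    intro b hb
    exact ⟨Subgroup.mul_mem _ (Subgroup.mul_mem _ (hTU ht) hb.1) (Subgroup.inv_mem _ (hTU ht)),
      hN.conj_mem b hb.2 t⟩
  have hUB : U ≤ B := le_inf le_normalizer inf_le_right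
  have hBs : Group.IsSolvable B := by
    have h1 : (U.subgroupOf B).Normal := by
      rw [normal_subgroupOf_iff_le_normalizer hUB]
      exact inf_le_left
    have h2 : Group.IsSolvable ↥(U.subgroupOf B) := by
      have h4 : IsPGroup 2 ↥(U.subgroupOf B) := hUp.comap_subtype
      have := h4.isNilpotent
      infer_instance
    have h3 : Group.IsSolvable (↥B ⧸ U.subgroupOf B) := by
      apply S0205.result
      rw [← index_eq_card]
      have h4 : ¬ 2 ∣ U.relIndex N := by
        obtain ⟨Q, hQ⟩ := S0542.result 2 N hN.isSubnormal T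
        have h5 := Q.not_dvd_index
        rw [hQ] at h5
        rw [hU, inf_relIndex_right]
        exact h5
      rw [← Nat.not_even_iff_odd, even_iff_two_dvd]
      intro h5
      apply h4
      rw [← relIndex_mul_relIndex U B N hUB inf_le_right]
      exact h5.mul_right _
    exact Group.isSolvable_of_ker_le_range (U.subgroupOf B).subtype (QuotientGroup.mk' (U.subgroupOf B))
      (by rw [QuotientGroup.ker_mk', range_subtype])
  have hTs : Group.IsSolvable (T : Subgroup H) := by
    have := T.2.isNilpotent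
    infer_instance
  have hXs := SignalizersComponents.CoprimeBasic.isSolvable_sup hTB hBs hTs
  have hodd := hX (B ⊔ T) le_sup_right hXs
  have hdB : (d : H) ∈ B := ⟨mem_normalizer_fintype hdU, hSN i0 d.2⟩
  have h9 := OddClosed.commute hodd hUp (hUB.trans le_sup_left) (le_sup_left (a := B) hdB) hdU hdo (hPU z hz)
  apply hzz
  rw [← hdz]
  exact (Subtype.ext h9).symm

theorem isSolvable_aux (n : ℕ) : ∀ (H : Type u) [Group H] [Finite H], Nat.card H = n → ¬ 3 ∣ Nat.card H →
    ∀ T : Sylow 2 H, (∀ X : Subgroup H, (T : Subgroup H) ≤ X → Group.IsSolvable X → OddClosed X) →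
    Group.IsSolvable H := by
  induction n using Nat.strong_induction_on with
  | _ n ih =>
    intro H _ _ hn h3 T hX
    by_contra hns
    have hnt : Nontrivial H := by
      by_contra h
      have : Subsingleton H := not_nontrivial_iff_subsingleton.1 h
      exact hns inferInstance
    obtain ⟨N, hN, hNb, hmin⟩ : ∃ N : Subgroup H, N.Normal ∧ N ≠ ⊥ ∧
        ∀ M : Subgroup H, M.Normal → M ≤ N → M = ⊥ ∨ M = N := by
      obtain ⟨N, ⟨hN, hNb⟩, hmin⟩ := (Set.toFinite {N : Subgroup H | N.Normal ∧ N ≠ ⊥}).exists_minimal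
        ⟨⊤, inferInstance, top_ne_bot⟩
      refine ⟨N, hN, hNb, fun M hM hMN => ?_⟩
      by_cases h : M = ⊥
      · exact Or.inl h
      · exact Or.inr (le_antisymm hMN (hmin ⟨hM, h⟩ hMN))
    by_cases hNs : Group.IsSolvable N
    · apply hns
      have hf2 : Fact (Nat.Prime 2) := ⟨Nat.prime_two⟩
      have h1 := N.card_mul_index
      have hN1 : 1 < Nat.card N := one_lt_card_iff_ne_bot N |>.2 hNb
      have hcQ : Nat.card (H ⧸ N) < n := by
        rw [← index_eq_card, ← hn, ← h1]
        have := Nat.pos_of_ne_zero N.index_ne_zero_of_finite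
        nlinarith
      have hdq : Nat.card (H ⧸ N) ∣ Nat.card H := by
        rw [← index_eq_card]
        exact index_dvd_card N
      have s2 : Group.IsSolvable (H ⧸ N) := by
        refine ih _ hcQ (H ⧸ N) rfl (fun h => h3 (h.trans hdq))
          (T.mapSurjective (QuotientGroup.mk'_surjective N)) ?_
        intro Y hTY hYs
        set X := Y.comap (QuotientGroup.mk' N) with hXdef
        have hXT : (T : Subgroup H) ≤ X := by
          rw [hXdef, ← map_le_iff_le_comap]
          exact hTY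
        let f : X →* Y := (QuotientGroup.mk' N).subgroupComap Y
        have hf : Function.Surjective f := by
          rintro ⟨y, hy⟩
          obtain ⟨x, rfl⟩ := QuotientGroup.mk'_surjective N y
          exact ⟨⟨x, hy⟩, rfl⟩
        have hXs : Group.IsSolvable X := by
          have hNX : N ≤ X := by
            intro x hx
            show QuotientGroup.mk' N x ∈ Y
            have : QuotientGroup.mk' N x = 1 := (QuotientGroup.eq_one_iff x).2 hx
            rw [this]
            exact one_mem _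
          refine Group.isSolvable_of_ker_le_range (inclusion hNX) f ?_
          intro x hx
          have h4 : QuotientGroup.mk' N (x : H) = 1 := congrArg Subtype.val ((MonoidHom.mem_ker).1 hx)
          exact ⟨⟨x, (QuotientGroup.eq_one_iff _).1 h4⟩, rfl⟩
        exact OddClosed.of_surjective f hf (hX X hXT hXs)
      exact Group.isSolvable_of_ker_le_range N.subtype (QuotientGroup.mk' N) (by simp)
    · exact exists_bad h3 T hX N hNb hmin hNs

/-- **(NS)** A group of order prime to 3 in which every solvable subgroup containing a given Sylow 2-subgroup has a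
normal 2-complement is solvable and has a normal 2-complement. -/
theorem ns {H : Type u} [Group H] [Finite H] (h3 : ¬ 3 ∣ Nat.card H) (T : Sylow 2 H)
    (hX : ∀ X : Subgroup H, (T : Subgroup H) ≤ X → Group.IsSolvable X → OddClosed X) :
    Group.IsSolvable H ∧ OddClosed H := by
  have hs := isSolvable_aux _ H rfl h3 T hX
  refine ⟨hs, ?_⟩
  have h1 := hX ⊤ le_top inferInstance
  exact OddClosed.of_surjective (Subgroup.topEquiv (G := H)).toMonoidHom Subgroup.topEquiv.surjective h1

end Cfsg.Agent.H14.NonSolv
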